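import Cfsg.Agent.Lib.Coprime.Baer
import Cfsg.Agent.Lib.Coprime.Action

/-!
# An involutory automorphism inverting a section of class two
-/

set_option autoImplicit false

namespace Cfsg.Lib.Rel

open Cfsg.Lib.Coprime Subgroup
open scoped commutatorElement

variable {Y : Type*} [Group Y] [Finite Y]

/-- The projection onto the fixed points of a coprime action on an abelian group. -/
theorem exists_proj_fixed {B : Type*} [CommGroup B] [Finite B] (φ : Y →* MulAut B)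
    (A : Subgroup Y) (hc : (Nat.card A).Coprime (Nat.card B)) :
    ∃ e : B →* B, (∀ x, ∀ a ∈ A, φ a (e x) = e x) ∧ (∀ x, (∀ a ∈ A, φ a x = x) → e x = x) ∧
      ∀ g ∈ normalizer (A : Set Y), ∀ x, e (φ g x) = φ g (e x) := by
  have := Fintype.ofFinite A
  obtain ⟨m, hm⟩ := exists_pow_mul_eq_self (M := B) hc
  have h : ∀ x, ((powMonoidHom m).comp (∏ a : A, (φ a).toMonoidHom)) x = (∏ a : A, φ a x) ^ m :=
    fun x => by rw [MonoidHom.comp_apply, MonoidHom.finsetProd_apply]; rfl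
  refine ⟨(powMonoidHom m).comp (∏ a : A, (φ a).toMonoidHom), fun x a ha => ?_, fun x hx => ?_,
    fun g hg x => ?_⟩
  · rw [h, map_pow, map_prod]
    exact congrArg (· ^ m) (Fintype.prod_equiv (Equiv.mulLeft (⟨a, ha⟩ : A)) _ _ fun b => by simp)
  · rw [h, Finset.prod_congr rfl fun (a : A) _ => hx a a.2, Finset.prod_const, Finset.card_univ,
      ← pow_mul, ← Nat.card_eq_fintype_card, hm]
  · rw [h, h, map_pow, map_prod]
    refine congrArg (· ^ m) (Fintype.prod_equiv (A.normalizerMonoidHom ⟨g, hg⟩).toEquiv _ _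
      fun b => ?_).symm
    rw [← MulAut.mul_apply, ← MulAut.mul_apply, ← map_mul, ← map_mul]
    congr 2
    change g * b = g * b * g⁻¹ * g
    group

omit [Finite Y] in
/-- Gluing a homomorphism on a normal subgroup with the identity on a supplement. -/
theorem exists_hom_of_compat {K D : Subgroup Y} [hK : K.Normal] (hY : K ⊔ D = ⊤) (t : K →* Y)
    (h1 : ∀ d ∈ D, ∀ k : K, t ⟨d * k * d⁻¹, hK.conj_mem _ k.2 d⟩ = d * t k * d⁻¹)
    (h2 : ∀ k : K, (k : Y) ∈ D → t k = k) :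
    ∃ τ : Y →* Y, (∀ k : K, τ k = t k) ∧ ∀ d ∈ D, τ d = d := by
  have h3 : ∀ y : Y, ∃ k : K, ∃ d ∈ D, (k : Y) * d = y := fun y => by
    obtain ⟨k, hk, d, hd, e⟩ := mem_sup_of_normal_left.1 (hY.ge (mem_top y))
    exact ⟨⟨k, hk⟩, d, hd, e⟩
  choose κ δ hδ e using id h3
  have key : ∀ (k : K), ∀ d ∈ D, t (κ (k * d)) * δ (k * d) = t k * d := fun k d hd => by
    have h4 : ((k⁻¹ * κ (k * d) : K) : Y) = d * (δ (k * d))⁻¹ := by
      rw [coe_mul, coe_inv, eq_mul_inv_iff_mul_eq, mul_assoc, e, inv_mul_cancel_left]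
    have h5 := h2 _ (h4 ▸ D.mul_mem hd (D.inv_mem (hδ _)))
    rw [h4, map_mul, map_inv, inv_mul_eq_iff_eq_mul] at h5
    rw [h5]; group
  refine ⟨MonoidHom.mk' (fun y => t (κ y) * δ y) fun x y => ?_, fun k => ?_, fun d hd => ?_⟩
  · obtain ⟨k, d, hd, rfl⟩ := h3 x
    obtain ⟨k', d', hd', rfl⟩ := h3 y
    have := key (k * ⟨d * k' * d⁻¹, hK.conj_mem _ k'.2 d⟩) _ (D.mul_mem hd hd')
    rw [map_mul, h1 d hd] at this
    rw [key k d hd, key k' d' hd', show (k : Y) * d * (k' * d') =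
      (k * ⟨d * k' * d⁻¹, hK.conj_mem _ k'.2 d⟩ : K) * (d * d') by simp [mul_assoc], this]
    group
  · simpa using key k 1 D.one_mem
  · simpa using key 1 d hd

theorem exists_involution {K Z A : Subgroup Y} [hK : K.Normal] (hZ : Z ≤ center Y)
    (hab : ⁅K, K⁆ ≤ Z) (hodd : Odd (Nat.card K)) (hc : (Nat.card A).Coprime (Nat.card K))
    (hC : K ⊓ centralizer (A : Set Y) ≤ Z) (hY : K ⊔ normalizer (A : Set Y) = ⊤) :
    ∃ τ : Y →* Y, (∀ y, τ (τ y) = y) ∧ (∀ d ∈ normalizer (A : Set Y), τ d = d) ∧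
      ∀ k ∈ K, τ k * k ∈ Z := by
  have hz : ∀ {x : K}, (x : Y) ∈ Z → ∀ y : K, Commute y x := fun h y =>
    Subtype.ext (mem_center_iff.1 (hZ h) y)
  have hcm : ∀ x y : K, ((⁅x, y⁆ : K) : Y) ∈ Z := fun x y => hab (commutator_mem_commutator x.2 y.2)
  obtain ⟨d⟩ := nonempty_baerData hodd fun x y z => hz (hcm x y) z
  obtain ⟨e, h1, h2, h3⟩ := exists_proj_fixed ((Baer.aut d).comp MulAut.conjNormal) A hc
  obtain ⟨E, hE⟩ : ∃ E : K → K, ∀ x, Baer.of d (E x) = e (Baer.of d x) :=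
    ⟨fun x => (Baer.of d).symm (e (Baer.of d x)), fun _ => rfl⟩
  have h4 : ∀ x, (E x : Y) ∈ Z := fun x => hC ⟨(E x).2, fun a ha => by
    have := h1 (Baer.of d x) a ha
    rw [← hE, MonoidHom.comp_apply, Baer.aut_apply] at this
    exact mul_inv_eq_iff_eq_mul.1 (congrArg Subtype.val ((Baer.of d).injective this))⟩
  have h5 : ∀ x : K, (x : Y) ∈ Z → E x = x := fun x hx => (Baer.of d).injective (by
    rw [hE]
    refine h2 _ fun a _ => ?_
    rw [MonoidHom.comp_apply, Baer.aut_apply]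
    congr 1
    exact Subtype.ext (mul_inv_eq_iff_eq_mul.2 (mem_center_iff.1 (hZ hx) a)))
  have h6 : ∀ x y, E x ^ 2 * E y ^ 2 = E (x * y) ^ 2 * ⁅y, x⁆ := fun x y => by
    have h7 : ((⁅y, x⁆ ^ d.m : K) : Y) ∈ Z := Z.pow_mem (hcm y x) _
    have h8 : E x * E y = E (x * y) * ⁅y, x⁆ ^ d.m := (Baer.of d).injective (by
      rw [Baer.of_mul_of_commute d (hz (h4 y) _), Baer.of_mul_of_commute d (hz h7 _), ← h5 _ h7, hE,
        hE, hE, hE, ← e.map_mul, ← e.map_mul, Baer.of_mul_of, Baer.of_mul_of_commute d (hz h7 _)])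
    rw [← (hz (h4 y) _).mul_pow, h8, (hz h7 _).mul_pow, ← pow_mul, mul_comm d.m, d.half]
  have h7 : ∀ x, ((E x ^ 2 : K) : Y) ∈ Z := fun x => Z.pow_mem (h4 x) _
  let t : K →* K := MonoidHom.mk' (fun x => E x ^ 2 * x⁻¹) fun x y => by
    rw [mul_assoc (E x ^ 2), ← mul_assoc x⁻¹, (hz (h7 y) x⁻¹).eq, ← mul_assoc, ← mul_assoc, h6,
      mul_assoc, mul_assoc, ← (hz (hcm y x) _).eq, commutatorElement_def]
    group
  have ht : ∀ x, t x = E x ^ 2 * x⁻¹ := fun _ => rfl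
  have h8 : ∀ x : K, (x : Y) ∈ Z → t x = x := fun x hx => by rw [ht, h5 x hx]; group
  obtain ⟨τ, h9, h10⟩ := exists_hom_of_compat hY (K.subtype.comp t) (fun g hg k => by
      have := h3 g hg (Baer.of d k)
      rw [← hE, MonoidHom.comp_apply, Baer.aut_apply, Baer.aut_apply, ← hE] at this
      have h9 := (Baer.of d).injective this
      change ((E (MulAut.conjNormal g k) ^ 2 * (MulAut.conjNormal g k)⁻¹ : K) : Y) = _
      rw [h9, ← map_pow, ← map_inv, ← map_mul]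
      rfl)
    fun k hk => congrArg Subtype.val (h8 k (hC ⟨k.2, fun a ha => by
      have : a * k * a⁻¹ * (k : Y)⁻¹ ∈ A ⊓ K := ⟨by
        simpa [mul_assoc] using A.mul_mem ha (conj_mem_of_mem_normalizer hk (A.inv_mem ha)),
        K.mul_mem (hK.conj_mem _ k.2 a) (K.inv_mem k.2)⟩
      rw [(disjoint_of_coprime_natCard hc).eq_bot, mem_bot, mul_inv_eq_one, mul_inv_eq_iff_eq_mul] at this
      exact this⟩))
  refine ⟨τ, fun y => ?_, h10, fun k hk => ?_⟩
  · obtain ⟨k, hk, g, hg, rfl⟩ := mem_sup_of_normal_left.1 (hY.ge (mem_top y))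
    have : t (t ⟨k, hk⟩) = ⟨k, hk⟩ := by
      conv_lhs => rw [ht ⟨k, hk⟩, map_mul, map_inv, h8 _ (h7 _), ht, mul_inv_rev, inv_inv,
        ← mul_assoc, ← (hz (h7 _) _).eq, mul_inv_cancel_right]
    rw [map_mul, map_mul, h10 g hg, h10 g hg, h9 ⟨k, hk⟩, MonoidHom.comp_apply, coe_subtype, h9,
      MonoidHom.comp_apply, this, coe_subtype]
  · rw [h9 ⟨k, hk⟩]
    simpa [ht] using h7 ⟨k, hk⟩

end Cfsg.Lib.Rel
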