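import Cfsg.Agent.Lib.Rel.OW
import Cfsg.Agent.Lib.Rel.Invol
import Cfsg.Agent.Lib.Coprime.FT

/-!
# The step of the Isaacs correspondence across an abelian section
-/

set_option autoImplicit false
set_option linter.unusedSectionVars false

namespace Cfsg.Lib.Rel

open Cfsg.Lib.PF Cfsg.Lib.Char Cfsg.Lib.Coprime Cfsg.Lib.CharDeg Subgroup
open scoped ComplexConjugate commutatorElement

universe u

variable {X Y : Type*} [Group X] [Finite X] [Group Y] [Finite Y]
variable {p : ℕ} {G K C N Z S A B : Subgroup X} {θ θ' χ μ : X → ℂ}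

/-- Uniqueness of the invariant character above `μ` when the action on the abelian section
`K / N` has no fixed points. -/
theorem eq_of_InvO_of_comm (hNK : N ≤ K) (hab : ⁅K, K⁆ ≤ N) (hAK : A ≤ normalizer (K : Set X))
    (hAN : A ≤ normalizer (N : Set X)) (hc : (Nat.card A).Coprime (N.relIndex K))
    (hK : K ≤ N ⊔ ⁅K, A⁆) (hμ : μ ∈ Irr N) (h1 : θ ∈ InvO K N μ A) (h2 : θ' ∈ InvO K N μ A) :
    θ = θ' := by
  have := Fintype.ofFinite N
  have := Fintype.ofFinite A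
  have := normal_subgroupOf hNK (le_normalizer_of_comm hab hNK)
  have : IsMulCommutative (K ⧸ N.subgroupOf K) :=
    Normal.quotient_commutative_iff_commutator_le.2 (commutator_le.2 fun x _ y _ =>
      hab (commutator_mem_commutator x.2 y.2))
  obtain ⟨h1, h3⟩ := h1
  obtain ⟨h2, h4⟩ := h2
  obtain ⟨μ, rfl⟩ := exists_eq_ext hμ
  obtain ⟨θ, rfl⟩ := exists_eq_ext (mem_IrrO.1 h1).1
  obtain ⟨θ', rfl⟩ := exists_eq_ext (mem_IrrO.1 h2).1
  obtain ⟨l, rfl⟩ := exists_irrPermMul_eq (inclusion hNK) (inclusion_injective _)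
    (QuotientGroup.mk' (N.subgroupOf K)) (by rw [QuotientGroup.ker_mk', inclusion_range])
    (resMult_ne_zero_iff.2 ((cfdot_ext hNK θ.1 μ.1).symm.trans_ne (mem_IrrO.1 h1).2))
    (resMult_ne_zero_iff.2 ((cfdot_ext hNK θ'.1 μ.1).symm.trans_ne (mem_IrrO.1 h2).2))
  set l' := l.comp (QuotientGroup.mk' (N.subgroupOf K)) with hl
  let ν : K →* ℂˣ := ∏ a : A, l'.comp (conjAut hAK a).toMonoidHom
  have hν : ∀ k, ν k = ∏ a : A, l' (conjAut hAK a k) := fun k => MonoidHom.finsetProd_apply _ _ _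
  have h5 : K ≤ ν.ker.map K.subtype := hK.trans (sup_le (fun n hn => ⟨⟨n, hNK hn⟩, by
      refine (hν _).trans (Finset.prod_eq_one fun a _ => ?_)
      rw [hl, MonoidHom.comp_apply, QuotientGroup.mk'_apply, (QuotientGroup.eq_one_iff _).2, map_one]
      exact conj_mem_of_mem_normalizer (hAN a.2) hn, rfl⟩)
    (commutator_le.2 fun k hk a ha => ⟨⟨k, hk⟩ * (conjAut hAK ⟨a, ha⟩ ⟨k, hk⟩)⁻¹, by
      rw [SetLike.mem_coe, MonoidHom.mem_ker, map_mul, map_inv, mul_inv_eq_one, hν, hν]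
      exact (Fintype.prod_equiv (Equiv.mulRight (⟨a, ha⟩ : A)) _ _ fun b => by simp).symm,
      by simp [coe_conjAut, commutatorElement_def, mul_assoc]⟩))
  congr 1
  funext k
  rw [irrPermMul_apply]
  by_cases h0 : θ.1 k = 0
  · rw [h0, mul_zero]
  have h6 : ∀ a : A, l' (conjAut hAK a k) = l' k := fun a => by
    have h6 := (le_inertia_ext_iff hAK _).1 h4 a a.2 k (conjAut hAK a k) rfl
    rw [irrPermMul_apply, irrPermMul_apply,
      (le_inertia_ext_iff hAK _).1 h3 a a.2 k (conjAut hAK a k) rfl] at h6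
    exact Units.ext (mul_right_cancel₀ h0 h6)
  obtain ⟨k', h7, h8⟩ := h5 k.2
  rw [Subtype.ext h8, SetLike.mem_coe, MonoidHom.mem_ker, hν, Finset.prod_congr rfl fun a _ => h6 a,
    Finset.prod_const, Finset.card_univ, ← Nat.card_eq_fintype_card] at h7
  have h9 : l' k ^ N.relIndex K = 1 := by
    rw [hl, MonoidHom.comp_apply, ← map_pow, relIndex, index, pow_card_eq_one', map_one]
  have h10 : l' k = 1 := by rw [← pow_one (l' k), ← hc.gcd_eq_one, pow_gcd_eq_one.2 ⟨h7, h9⟩]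
  change _ = (l' k : ℂ) * _
  rw [h10, Units.val_one, one_mul]

/-- A coprime action which is trivial on `G / K` fixes all characters above an invariant one. -/
theorem le_inertia_of_commutator_le {X : Type u} [Group X] [Finite X] {G K B : Subgroup X}
    {θ χ : X → ℂ} (hKG : K ≤ G) (hn : G ≤ normalizer (K : Set X))
    (hBK : B ≤ normalizer (K : Set X)) (hc : (Nat.card B).Coprime (Nat.card G))
    (hB : ∀ b ∈ B, ∀ g ∈ G, b * g * b⁻¹ * g⁻¹ ∈ K) (hθ : θ ∈ InvIrr K B) (hI : G ≤ inertia θ)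
    (hχ : χ ∈ IrrO G K θ) : B ≤ inertia χ := fun b hb => by
  have h0 : ∀ U, K ≤ U → U ≤ G → B ≤ normalizer (U : Set X) := fun U h1 h2 b hb =>
    mem_normalizer_fintype fun u hu => by simpa using U.mul_mem (h1 (hB b hb u (h2 hu))) hu
  refine mem_inertia_of (Irr.mem_CF (mem_IrrO.1 hχ).1) (h0 G hKG le_rfl hb) fun g hg => ?_
  have h1 : K ⊔ zpowers g ≤ G := sup_le hKG (zpowers_le.2 hg)
  have h2 : g ∈ K ⊔ zpowers g := mem_sup_right (mem_zpowers g)
  have h3 : ∀ t ∈ K ⊔ zpowers g, ∃ k ∈ K, ∃ n : ℤ, k * g ^ n = t := fun t ht => by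
    obtain ⟨k, hk, _, ⟨n, rfl⟩, e⟩ :=
      (mem_sup_left_of_le_normalizer ((zpowers_le.2 hg).trans hn)).1 ht
    exact ⟨k, hk, n, e⟩
  have h4 : ∀ n : ℤ, g ^ n ∈ normalizer (K : Set X) := fun n => hn (G.zpow_mem hg n)
  obtain ⟨η, h5, h6⟩ := exists_inv_above le_sup_left (h1.trans hn) (h0 _ le_sup_left h1) hBK
    (hc.coprime_dvd_right (card_dvd_of_le h1)) hθ
  have h7 : res K η = θ := Extends.res_eq (exists_extension_of_cyclic le_sup_left (h1.trans hn)
    hθ.1 (h1.trans hI) h2 fun t ht => by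
      obtain ⟨k, hk, n, rfl⟩ := h3 t ht
      exact ⟨n, by simpa [mul_assoc] using conj_mem_of_mem_normalizer' (h4 n) hk⟩) le_sup_left
    (commutator_le.2 fun x hx y hy => by
      obtain ⟨k, hk, n, rfl⟩ := h3 x hx
      obtain ⟨k', hk', m, rfl⟩ := h3 y hy
      have := K.mul_mem (K.mul_mem (K.mul_mem hk (conj_mem_of_mem_normalizer (h4 n) hk'))
        (conj_mem_of_mem_normalizer (h4 m) (K.inv_mem hk))) (K.inv_mem hk')
      convert this using 1
      rw [commutatorElement_def]; group) hθ.1 h5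
  have h8 := res_mem_CF h1 (Irr.mem_CF (mem_IrrO.1 hχ).1)
  rw [← res_of_mem χ h2, ← res_of_mem χ (conj_mem_of_mem_normalizer (h0 _ le_sup_left h1 hb) h2),
    CF.apply_eq_sum_Irr h8, CF.apply_eq_sum_Irr h8]
  refine Finset.sum_congr rfl fun ψ hψ => ?_
  by_cases h9 : cfdot (K ⊔ zpowers g) (res (K ⊔ zpowers g) χ) ψ = 0
  · rw [h9, zero_mul, zero_mul]
  rw [cfdot_res_left] at h9
  obtain ⟨β, -, h10, rfl⟩ := exists_mul_ext le_sup_left le_rfl (h1.trans hn)
    (Irr.isChar (mem_IrrO.1 h5).1) (h7 ▸ hθ.1) hψ (by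
      rw [← cfdot_res_right, h7]
      exact over_of_cfdot_ne_zero hKG hn hI hθ.1 hχ le_sup_left h1 hψ h9)
  rw [Pi.mul_apply, Pi.mul_apply, mem_inertia_iff.1 (h6 hb), ← h10 (hB b hb g hg) g,
    inv_mul_cancel_right]

theorem invIrr_subset {X : Type u} [Group X] [Finite X] {G K Z A B : Subgroup X} (hZK : Z ≤ K)
    (hKG : K ≤ G) (hn : G ≤ normalizer (K : Set X)) (hab : ⁅K, K⁆ ≤ Z)
    (hAG : A ≤ normalizer (G : Set X)) (hAK : A ≤ normalizer (K : Set X))
    (hBK : B ≤ normalizer (K : Set X)) (hBA : B ≤ normalizer (A : Set X))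
    (hZ : G ⊔ A ⊔ B ≤ centralizer (Z : Set X)) (hA : (Nat.card A).Coprime (Nat.card G))
    (hc : (Nat.card B).Coprime (Nat.card G)) (hC : K ⊓ centralizer (A : Set X) ≤ Z)
    (hG : G ≤ K ⊔ (G ⊓ centralizer (A : Set X)))
    (hB : ∀ b ∈ B, ∀ g ∈ G, b * g * b⁻¹ * g⁻¹ ∈ K) : InvIrr G A ⊆ InvIrr G B := fun χ hχ => by
  have hA' := hA.coprime_dvd_right (card_dvd_of_le hKG)
  obtain ⟨θ, h1, h2⟩ := exists_inv_below hKG hn hAG hAK
    (hA.coprime_dvd_right (relIndex_dvd_card _ _)) hχ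
  obtain ⟨μ, h3, h4⟩ := CF.exists_Irr_cfdot_ne_zero (res_mem_CF hZK (Irr.mem_CF h1.1)) fun e =>
    Irr.apply_one_ne_zero h1.1 (by simpa using congrFun e 1)
  rw [cfdot_res_left] at h4
  have h5 : ∀ x ∈ G ⊔ A ⊔ B, x ∈ normalizer (K : Set X) → x ∈ normalizer (A : Set X) →
      x ∈ inertia θ := fun x hx h5 h6 => by
    have h7 := centralizer_le_normalizer _ (hZ hx)
    have h8 := cfConj_mem_IrrO h5 h7 (mem_IrrO.2 ⟨h1.1, h4⟩)
    rw [mem_inertia.1 (mem_inertia_of (Irr.mem_CF h3) h7 fun z hz => by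
      rw [← hZ hx z hz, mul_inv_cancel_right])] at h8
    exact eq_of_InvO_of_comm hZK hab hAK
      (le_sup_right.trans (le_sup_left.trans (hZ.trans (centralizer_le_normalizer _))))
      (hA'.coprime_dvd_right (relIndex_dvd_card _ _))
      ((commutator_sup_centralizer hAK hA' (isSolvable_or_of_coprime hA')).ge.trans
        (sup_le le_sup_right (hC.trans le_sup_left))) h3
      ⟨h8, (cfConj_mem_InvIrr h5 h6 h1).2⟩ ⟨mem_IrrO.2 ⟨h1.1, h4⟩, h1.2⟩
  exact ⟨hχ.1, le_inertia_of_commutator_le hKG hn hBK hc hB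
    ⟨h1.1, fun b hb => h5 b (mem_sup_right hb) (hBK hb) (hBA hb)⟩
    (hG.trans (sup_le (CF.le_inertia (Irr.mem_CF h1.1)) fun c hc =>
      h5 c (mem_sup_left (mem_sup_left hc.1)) (hn hc.1) (centralizer_le_normalizer _ hc.2)))
    (mem_IrrO.2 ⟨hχ.1, h2⟩)⟩

theorem bijOn_pull_InvIrr (f : Y →* X) (hf : Function.Injective f) (U V : Subgroup Y) :
    Set.BijOn (· ∘ f) (InvIrr (U.map f) (V.map f)) (InvIrr U V) := by
  have h0 : ∀ {φ : X → ℂ}, φ ∈ CF (U.map f) → ∀ x, x ∉ f.range → φ x = 0 := fun h x hx =>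
    CF.zero_off h fun e => hx (map_le_range f U e)
  refine ⟨fun φ h => ⟨?_, fun v hv => ?_⟩, fun φ h ψ h' e =>
    eq_of_pull_eq f (h0 (Irr.mem_CF h.1)) (h0 (Irr.mem_CF h'.1)) e, fun β h => ?_⟩
  · simpa only [comap_map_eq_self_of_injective hf] using pull_mem_Irr f (map_le_range f U) h.1
  · rw [mem_inertia, cfConj_pull, mem_inertia.1 (h.2 ⟨v, hv, rfl⟩)]
  · obtain ⟨φ, h1, rfl⟩ := exists_pull f h.1 ((f.ker_eq_bot_iff.2 hf).le.trans bot_le)
    refine ⟨φ, ⟨h1, ?_⟩, rfl⟩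
    rintro _ ⟨v, hv, rfl⟩
    refine eq_of_pull_eq f (fun x hx => h0 (Irr.mem_CF h1) _ fun e => hx ?_) (h0 (Irr.mem_CF h1))
      ((cfConj_pull f v φ).symm.trans (h.2 hv))
    simpa [mul_assoc] using f.range.mul_mem (f.range.mul_mem (f.range.inv_mem ⟨v, rfl⟩) e) ⟨v, rfl⟩

theorem ModCor.of_map (f : Y →* X) (hf : Function.Injective f) {U V W : Subgroup Y}
    (h : ModCor p (V.map f) (InvIrr (U.map f) (W.map f)) (InvIrr (V.map f) (W.map f))) :
    ModCor p V (InvIrr U W) (InvIrr V W) :=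
  h.of_bijOn (bijOn_pull_InvIrr f hf U W) (bijOn_pull_InvIrr f hf V W) fun _ _ _ _ =>
    cfdot_pull_map f V _ _

theorem conj_mul_mem {b k c : X} (hb : b ∈ normalizer (K : Set X)) (hk : k ∈ K)
    (h : c * b = b * c) : b * (k * c) * b⁻¹ * (k * c)⁻¹ ∈ K := by
  rw [show b * (k * c) * b⁻¹ * (k * c)⁻¹ = b * k * (c * b * c⁻¹)⁻¹ * k⁻¹ by group, h,
    mul_inv_cancel_right]
  exact K.mul_mem (conj_mem_of_mem_normalizer hb hk) (K.inv_mem hk)

theorem modCor_two_of_involution {X : Type u} [Group X] [Finite X] {G K Z A H : Subgroup X} {t : X}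
    (hZK : Z ≤ K) (hKG : K ≤ G) (hn : G ≤ normalizer (K : Set X)) (hab : ⁅K, K⁆ ≤ Z)
    (hAG : A ≤ normalizer (G : Set X)) (hAK : A ≤ normalizer (K : Set X))
    (hZ : G ⊔ A ≤ centralizer (Z : Set X)) (hodd : Odd (Nat.card G))
    (hA : (Nat.card A).Coprime (Nat.card G)) (hH : H = G ⊓ centralizer (A : Set X))
    (hC : K ⊓ H ≤ Z) (hG : G = K ⊔ H) (h1 : t * t = 1) (h2 : ∀ d ∈ H ⊔ A, t * d * t⁻¹ = d)
    (h3 : ∀ k ∈ K, t * k * t⁻¹ * k ∈ Z) : ModCor 2 H (InvIrr G A) (InvIrr H A) := by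
  have hHG : H ≤ G := hH ▸ inf_le_left
  have hZH : Z ≤ H := hH ▸ le_inf (hZK.trans hKG) (le_centralizer_iff.1 (le_sup_right.trans hZ))
  have hP : IsPGroup 2 (zpowers t) := fun ⟨_, n, rfl⟩ => ⟨1, Subtype.ext (by
    change (t ^ n) ^ 2 ^ 1 = 1
    rw [pow_one, ← zpow_natCast, ← zpow_mul, mul_comm, zpow_mul, zpow_natCast, pow_two, h1, one_zpow])⟩
  have h4 : ¬ 2 ∣ Nat.card G := hodd.not_two_dvd_nat
  have h5 : zpowers t ≤ centralizer ((H ⊔ A : Subgroup X) : Set X) :=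
    zpowers_le.2 fun d hd => (mul_inv_eq_iff_eq_mul.1 (h2 d hd)).symm
  have h6 : zpowers t ≤ normalizer (K : Set X) := zpowers_le.2 (mem_normalizer_fintype fun k hk => by
    simpa using K.mul_mem (hZK (h3 k hk)) (K.inv_mem hk))
  have h7 : ∀ g ∈ G, ∃ k ∈ K, ∃ c ∈ H, k * c = g := fun g hg =>
    (mem_sup_left_of_le_normalizer (hHG.trans hn)).1 (hG.le hg)
  have h8 : ∀ B : Subgroup X, B ≤ normalizer (K : Set X) → B ≤ centralizer (H : Set X) →
      ∀ b ∈ B, ∀ g ∈ G, b * g * b⁻¹ * g⁻¹ ∈ K := fun B hB hB' b hb g hg => by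
    obtain ⟨k, hk, c, hc, rfl⟩ := h7 g hg
    exact conj_mul_mem (hB hb) hk (hB' hb c hc)
  have h5' : zpowers t ≤ centralizer (H : Set X) := fun b hb c hc => h5 hb c (mem_sup_left hc)
  have h9 := h8 _ h6 h5'
  have h10 : zpowers t ≤ normalizer (G : Set X) := fun b hb => mem_normalizer_fintype fun g hg => by
    simpa using G.mul_mem (hKG (h9 b hb g hg)) hg
  have h11 : K ⊓ centralizer (zpowers t : Set X) ≤ Z := fun k hk =>
    mem_of_sq_mem_of_odd hodd (hKG hk.1) (by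
      simpa [hk.2 t (mem_zpowers t), pow_two] using h3 k hk.1)
  have h12 : H = G ⊓ centralizer (zpowers t : Set X) := le_antisymm
    (le_inf hHG (le_centralizer_iff.1 h5')) fun g hg => by
    obtain ⟨k, hk, c, hc, rfl⟩ := h7 g hg.1
    refine H.mul_mem (hZH (h11 ⟨hk, ?_⟩)) hc
    simpa using Subgroup.mul_mem _ hg.2 (Subgroup.inv_mem _ (le_centralizer_iff.1 h5' hc))
  have h13 : zpowers t ≤ centralizer (Z : Set X) := fun b hb c hc => h5' hb c (hZH hc)
  have h14 := coprime_card_of_isPGroup hP h4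
  have h15 : zpowers t ≤ centralizer (A : Set X) := fun b hb c hc => h5 hb c (mem_sup_right hc)
  rw [(invIrr_subset hZK hKG hn hab hAG hAK h6 (h15.trans (centralizer_le_normalizer _))
    (sup_le hZ h13) hA h14 (le_trans (le_inf inf_le_left (hH ▸ inf_le_inf_right _ hKG)) hC)
    (hH ▸ hG.le) h9).antisymm (invIrr_subset hZK hKG hn hab h10 h6 hAK
      ((le_centralizer_iff.1 h15).trans (centralizer_le_normalizer _))
      (sup_le (sup_le (le_sup_left.trans hZ) h13) (le_sup_right.trans hZ)) h14 hA h11 (h12 ▸ hG.le)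
      (h8 _ hAK (le_centralizer_iff.1 (hH ▸ inf_le_right))))]
  have h16 : InvIrr H A = Irr H := hH ▸ invIrr_centralizer G A
  rw [h16]
  exact modCor_glauberman' hP h10 h4 h12

theorem modCor_two_of_central {Y : Type u} [Group Y] [Finite Y] {G K Z A H : Subgroup Y}
    [K.Normal] (hZK : Z ≤ K) (hKG : K ≤ G) (hab : ⁅K, K⁆ ≤ Z) (hAG : A ≤ normalizer (G : Set Y))
    (hZ : Z ≤ center Y) (hodd : Odd (Nat.card G)) (hA : (Nat.card A).Coprime (Nat.card G))
    (hH : H = G ⊓ centralizer (A : Set Y)) (hC : K ⊓ H ≤ Z) (hG : G = K ⊔ H) (hY : G ⊔ A = ⊤) :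
    ModCor 2 H (InvIrr G A) (InvIrr H A) := by
  have hd := card_dvd_of_le hKG
  have h0 : H ⊔ A ≤ normalizer (A : Set Y) :=
    sup_le ((hH ▸ inf_le_right).trans (centralizer_le_normalizer _)) le_normalizer
  obtain ⟨τ, h1, h2, h3⟩ := exists_involution hZ hab (hodd.of_dvd_nat hd) (hA.coprime_dvd_right hd)
    (le_trans (le_inf inf_le_left (hH ▸ inf_le_inf_right _ hKG)) hC)
    (top_le_iff.1 (hY.ge.trans (by rw [hG, sup_assoc]; exact sup_le_sup_left h0 _)))
  let f := MulAction.toPermHom Y Y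
  have hf : Function.Injective f := MulAction.toPerm_injective
  have h4 : ∀ y, (Function.Involutive.toPerm τ h1) * f y * (Function.Involutive.toPerm τ h1)⁻¹ =
      f (τ y) := fun y => Equiv.ext fun x => by
    change τ (y * τ x) = τ y * x
    rw [map_mul, h1]
  have h5 : ∀ {U V : Subgroup Y}, U ≤ normalizer (V : Set Y) →
      U.map f ≤ normalizer (V.map f : Set (Equiv.Perm Y)) := fun h =>
    (map_mono h).trans (le_normalizer_map f)
  refine ModCor.of_map f hf (modCor_two_of_involution (Z := Z.map f) (K := K.map f)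
    (t := Function.Involutive.toPerm τ h1) (map_mono hZK) (map_mono hKG) (h5 le_normalizer_of_normal)
    (by rw [← map_commutator]; exact map_mono hab) (h5 hAG) (h5 le_normalizer_of_normal) ?_
    (by rwa [card_map_of_injective hf]) (by rwa [card_map_of_injective hf, card_map_of_injective hf])
    ?_ (by rw [← map_inf _ _ _ hf]; exact map_mono hC) (by rw [← Subgroup.map_sup, ← hG])
    (Equiv.ext h1) ?_ ?_)
  · rw [← Subgroup.map_sup]
    rintro _ ⟨g, -, rfl⟩ _ ⟨z, hz, rfl⟩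
    rw [← map_mul, ← map_mul, mem_center_iff.1 (hZ hz)]
  · rw [hH, map_inf_centralizer_map' f hAG hA (isSolvable_or_of_coprime hA)]
  · rw [← Subgroup.map_sup]
    rintro _ ⟨g, hg, rfl⟩
    rw [h4, h2 g (h0 hg)]
  · rintro _ ⟨k, hk, rfl⟩
    rw [h4, ← map_mul]
    exact ⟨_, h3 k hk, rfl⟩

/-- **The inductive step of the Isaacs correspondence.** -/
theorem modCor_isaacs {X : Type u} [Group X] [Finite X] {G K L S H : Subgroup X}
    (hSG : S ≤ normalizer (G : Set X)) (hc : (Nat.card S).Coprime (Nat.card G))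
    (hodd : Odd (Nat.card G)) (hLK : L ≤ K) (hKG : K ≤ G) (hK : G ≤ normalizer (K : Set X))
    (hL : G ≤ normalizer (L : Set X)) (hSK : S ≤ normalizer (K : Set X))
    (hSL : S ≤ normalizer (L : Set X)) (hab : ⁅K, K⁆ ≤ L)
    (hG : K ⊔ (G ⊓ centralizer (S : Set X)) = G) (hH : H = L ⊔ (G ⊓ centralizer (S : Set X))) :
    ModCor 2 H (InvIrr G S) (InvIrr H S) := by
  have hHG : H ≤ G := hH ▸ sup_le (hLK.trans hKG) inf_le_left
  have hLN : L ≤ K ⊓ H := le_inf hLK (hH ▸ le_sup_left)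
  have hKH : K ⊔ H = G := le_antisymm (sup_le hKG hHG)
    (hG.ge.trans (sup_le_sup_left (hH ▸ le_sup_right) _))
  have h1 : G ≤ normalizer ((K ⊓ H : Subgroup X) : Set X) := hKH.ge.trans (sup_le
    (le_normalizer_of_commutator_le inf_le_left (hab.trans hLN))
    (le_normalizer_inf (hHG.trans hK) le_normalizer))
  have hSH : S ≤ normalizer (H : Set X) :=
    hH ▸ le_normalizer_sup hSL (le_normalizer_inf_centralizer S G)
  have h2 := le_normalizer_inf hSK hSH
  have hNG : K ⊓ H ≤ G := inf_le_left.trans hKG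
  have h3 : ∀ c, c ∈ H ↔ c ∈ G ∧ ∀ s ∈ S, s * c * s⁻¹ * c⁻¹ ∈ K ⊓ H := fun c =>
    ⟨fun h => ⟨hHG h, fun s hs => by
      obtain ⟨l, hl, d, hd, rfl⟩ :=
        (mem_sup_left_of_le_normalizer (inf_le_left.trans hL)).1 (hH.le h)
      exact hLN (conj_mul_mem (hSL hs) hl (hd.2 s hs).symm)⟩, fun h => by
      have h3 := hc.coprime_dvd_right (card_dvd_of_le hNG)
      obtain ⟨n, hn, h4⟩ := exists_mul_mem_centralizer' h2 h3 (isSolvable_or_of_coprime h3) h.2
      simpa using H.mul_mem (H.inv_mem hn.2)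
        (hH.ge (mem_sup_right ⟨G.mul_mem (hNG hn) h.1, h4⟩))⟩
  have hd := relIndex_dvd_card (K ⊓ H) G
  refine modCor_reduce hNG h1 hSG h2 (hc.coprime_dvd_right hd) h3
    fun θ hθ Γ Y _ _ _ _ π q μ Φ S₁ h4 h5 h6 h7 h8 => ?_
  have hNI := CF.le_inertia (Irr.mem_CF hθ.1)
  have hSI := le_normalizer_inertia hθ.2
  have hST := le_normalizer_inf hSG hSI
  have h9 : K ⊓ H ≤ K ⊓ inertia θ := le_inf inf_le_left hNI
  have h10 : K ⊓ H ≤ H ⊓ inertia θ := le_inf inf_le_right hNI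
  have h11 : K ⊓ inertia θ ≤ G ⊓ inertia θ := inf_le_inf_right _ hKG
  have h12 : H ⊓ inertia θ ≤ G ⊓ inertia θ := inf_le_inf_right _ hHG
  have := h4.normal_up h9 (sup_le (le_normalizer_inf (inf_le_left.trans hK)
    (inf_le_right.trans le_normalizer)) (le_normalizer_inf hSK hSI))
  have h13 := hc.coprime_dvd_right (card_dvd_of_le (inf_le_left : G ⊓ inertia θ ≤ G))
  refine modCor_two_of_central (up_mono π q h9) (up_mono π q h11)
    ((h4.commutator_le_iff h9 (h11.trans le_sup_left)).2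
      ((commutator_mono inf_le_left inf_le_left).trans (hab.trans hLN)))
    (le_sup_right.trans (h6.le.trans (h4.le_normalizer h4.le
      (sup_le (h4.le.trans le_normalizer) hST)))) h4.cent
    (Nat.coprime_two_left.1 (h5 2 (Nat.coprime_two_left.2 (hodd.of_dvd_nat hd))))
    ((h5 _ (hc.coprime_dvd_right hd)).coprime_dvd_left h7) h8 ?_ ?_ ?_
  · rw [← h4.up_inf h9 h10]
    exact up_mono π q (inf_le_inf inf_le_left inf_le_left)
  · rw [← h4.up_sup (h11.trans le_sup_left) (h12.trans le_sup_left)]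
    refine congrArg _ (le_antisymm ((commutator_sup_centralizer hST h13
      (isSolvable_or_of_coprime h13)).ge.trans (sup_le_sup (le_inf ?_
        ((commutator_le_of_le_normalizer hST).trans inf_le_right)) (le_inf
          (le_trans (inf_le_inf_right _ inf_le_left) (hH ▸ le_sup_right))
          (inf_le_left.trans inf_le_right)))) (sup_le h11 h12))
    refine commutator_le.2 fun g hg s hs => ?_
    obtain ⟨k, hk, d, hd, rfl⟩ :=
      (mem_sup_left_of_le_normalizer (inf_le_left.trans hK)).1 (hG.ge hg.1)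
    have := K.mul_mem hk (conj_mem_of_mem_normalizer (hSK hs) (K.inv_mem hk))
    convert this using 1
    rw [commutatorElement_def, mul_assoc k d, ← hd.2 s hs]
    group
  · refine top_le_iff.1 (h4.up_top.ge.trans ?_)
    rw [h4.up_sup le_sup_left le_sup_right]
    exact sup_le le_sup_left ((up_mono π q le_sup_right).trans (h6.ge.trans
      (sup_le_sup_right (up_mono π q h4.le) _)))

end Cfsg.Lib.Rel
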